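import Mathlib

/-!
Automorphisms of finite groups: restriction to invariant subgroups, quotients, and the
inequality `|C_{G/N}(α)| ≤ |C_G(α)|`.
-/

namespace Cfsg.Agent.H91.Alperin

variable {G : Type*} [Group G]

/-- Number of fixed points of an automorphism. -/
noncomputable def nFix (α : MulAut G) : ℕ := Nat.card {g : G // α g = g}

theorem map_eq_of_characteristic (α : MulAut G) (N : Subgroup G) [N.Characteristic] :
    N.map (α : G ≃* G).toMonoidHom = N :=
  Subgroup.characteristic_iff_map_eq.mp inferInstance α

/-- Restriction of an automorphism to a subgroup it preserves. -/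
noncomputable def resAut (α : MulAut G) (H : Subgroup G)
    (h : H.map (α : G ≃* G).toMonoidHom = H) : MulAut H :=
  (α.subgroupMap H).trans (MulEquiv.subgroupCongr h)

@[simp] theorem coe_resAut (α : MulAut G) (H : Subgroup G)
    (h : H.map (α : G ≃* G).toMonoidHom = H) (x : H) : ((resAut α H h x : H) : G) = α x := rfl

theorem coe_resAut_pow (α : MulAut G) (H : Subgroup G)
    (h : H.map (α : G ≃* G).toMonoidHom = H) (n : ℕ) (x : H) :
    ((((resAut α H h) ^ n) x : H) : G) = (α ^ n) x := by
  induction n with
  | zero => simp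
  | succ n ih => rw [pow_succ', pow_succ', MulAut.mul_apply, MulAut.mul_apply, coe_resAut, ih]

theorem resAut_pow_eq_one (α : MulAut G) (H : Subgroup G)
    (h : H.map (α : G ≃* G).toMonoidHom = H) {n : ℕ} (hn : α ^ n = 1) : (resAut α H h) ^ n = 1 := by
  ext x
  rw [coe_resAut_pow, hn]
  simp

theorem nFix_resAut_le [Finite G] (α : MulAut G) (H : Subgroup G)
    (h : H.map (α : G ≃* G).toMonoidHom = H) : nFix (resAut α H h) ≤ nFix α :=
  Nat.card_le_card_of_injective
    (fun x => ⟨((x.1 : H) : G), by rw [← coe_resAut α H h, x.2]⟩)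
    (fun a b e => Subtype.ext (Subtype.ext (congrArg (fun z : {g : G // α g = g} => z.1) e)))

/-- The fixed points form a subgroup. -/
def fixSub (α : MulAut G) : Subgroup G where
  carrier := {g | α g = g}
  one_mem' := map_one α
  mul_mem' {a b} (ha : α a = a) (hb : α b = b) := show α (a * b) = a * b by rw [map_mul, ha, hb]
  inv_mem' {a} (ha : α a = a) := show α a⁻¹ = a⁻¹ by rw [map_inv, ha]

theorem card_fixSub (α : MulAut G) : Nat.card (fixSub α) = nFix α := rfl

theorem nFix_resAut_dvd (α : MulAut G) (H : Subgroup G)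
    (h : H.map (α : G ≃* G).toMonoidHom = H) :
    nFix (resAut α H h) ∣ nFix α ∧ nFix (resAut α H h) ∣ Nat.card H := by
  refine ⟨?_, ?_⟩
  · rw [← card_fixSub, ← card_fixSub]
    refine Subgroup.card_dvd_of_injective
      (((H.subtype.comp (fixSub (resAut α H h)).subtype)).codRestrict (fixSub α) fun x => by
        show α ((x : H) : G) = ((x : H) : G)
        rw [← coe_resAut α H h]; exact congrArg Subtype.val x.2) ?_
    intro a b e
    have e' : (((a : H) : G)) = ((b : H) : G) := congrArg (fun z : fixSub α => (z : G)) e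
    exact Subtype.ext (Subtype.ext e')
  · rw [← card_fixSub]
    exact Subgroup.card_subgroup_dvd_card _

/-- The automorphism of a quotient. -/
def quotAut (α : MulAut G) (N : Subgroup G) [N.Normal]
    (h : N.map (α : G ≃* G).toMonoidHom = N) : MulAut (G ⧸ N) :=
  QuotientGroup.congr N N α h

@[simp] theorem quotAut_mk (α : MulAut G) (N : Subgroup G) [N.Normal]
    (h : N.map (α : G ≃* G).toMonoidHom = N) (g : G) :
    quotAut α N h (QuotientGroup.mk g) = QuotientGroup.mk (α g) := rfl

theorem quotAut_pow_eq_one (α : MulAut G) (N : Subgroup G) [N.Normal]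
    (h : N.map (α : G ≃* G).toMonoidHom = N) {n : ℕ} (hn : α ^ n = 1) :
    (quotAut α N h) ^ n = 1 := by
  have key : ∀ (m : ℕ) (g : G), ((quotAut α N h) ^ m) (QuotientGroup.mk g) =
      QuotientGroup.mk ((α ^ m) g) := by
    intro m
    induction m with
    | zero => simp
    | succ m ih => intro g; rw [pow_succ', pow_succ', MulAut.mul_apply, MulAut.mul_apply, ih, quotAut_mk]
  ext q
  induction q using QuotientGroup.induction_on with
  | H g => rw [key, hn]; rfl

/-- Displacements of an automorphism, counted. -/
theorem card_range_mul_nFix [Finite G] (α : MulAut G) :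
    Nat.card (Set.range fun g : G => g⁻¹ * α g) * nFix α = Nat.card G := by
  classical
  let φ : G → Set.range (fun g : G => g⁻¹ * α g) := Set.rangeFactorization _
  have hfib : ∀ y, Nat.card {g // φ g = y} = nFix α := by
    rintro ⟨_, g0, rfl⟩
    refine Nat.card_congr
      { toFun := fun g => ⟨g.1 * g0⁻¹, ?_⟩
        invFun := fun c => ⟨c.1 * g0, ?_⟩
        left_inv := fun g => Subtype.ext (by simp)
        right_inv := fun c => Subtype.ext (by simp) }
    · have h : g.1⁻¹ * α g.1 = g0⁻¹ * α g0 := congrArg Subtype.val g.2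
      rw [map_mul, map_inv, show α g.1 = g.1 * (g0⁻¹ * α g0) by rw [← h, mul_inv_cancel_left]]
      group
    · apply Subtype.ext
      show (c.1 * g0)⁻¹ * α (c.1 * g0) = g0⁻¹ * α g0
      rw [map_mul, c.2]; group
  haveI := Fintype.ofFinite G
  haveI := Fintype.ofFinite (Set.range fun g : G => g⁻¹ * α g)
  conv_rhs => rw [← Nat.card_congr (Equiv.sigmaFiberEquiv φ)]
  rw [Nat.card_sigma, Finset.sum_congr rfl (fun y _ => hfib y), Finset.sum_const, smul_eq_mul,
    Finset.card_univ, ← Nat.card_eq_fintype_card]

/-- `|C_{G/N}(α)| ≤ |C_G(α)|`. -/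
theorem nFix_quotAut_le [Finite G] (α : MulAut G) (N : Subgroup G) [N.Normal]
    (h : N.map (α : G ≃* G).toMonoidHom = N) : nFix (quotAut α N h) ≤ nFix α := by
  classical
  let R := Set.range (fun g : G => g⁻¹ * α g)
  let R' := Set.range (fun q : G ⧸ N => q⁻¹ * quotAut α N h q)
  have h1 := card_range_mul_nFix α
  have h2 := card_range_mul_nFix (quotAut α N h)
  have h3 : Nat.card R ≤ Nat.card R' * Nat.card N := by
    have hmem : ∀ r : R, QuotientGroup.mk (s := N) r.1 ∈ R' := by
      rintro ⟨_, g, rfl⟩
      exact ⟨QuotientGroup.mk g, rfl⟩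
    rw [← Nat.card_prod]
    refine Nat.card_le_card_of_injective
      (fun r : R => ((⟨_, hmem r⟩ : R'), (⟨(QuotientGroup.mk (s := N) r.1).out⁻¹ * r.1,
        QuotientGroup.eq.1 (QuotientGroup.out_eq' _)⟩ : N))) ?_
    intro a b e
    simp only [Prod.mk.injEq, Subtype.mk.injEq] at e
    apply Subtype.ext
    have := e.2
    rw [e.1] at this
    exact mul_left_cancel this
  have hG := Subgroup.card_eq_card_quotient_mul_card_subgroup N
  have hR : 0 < Nat.card R := Nat.card_pos_iff.2 ⟨⟨⟨1, 1, by simp⟩⟩, inferInstance⟩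
  have h4 : Nat.card R * nFix (quotAut α N h) ≤ Nat.card R * nFix α :=
    calc Nat.card R * nFix (quotAut α N h)
        ≤ Nat.card R' * Nat.card N * nFix (quotAut α N h) := Nat.mul_le_mul_right _ h3
      _ = Nat.card (G ⧸ N) * Nat.card N := by rw [← h2]; ring
      _ = _ := by rw [← hG, h1]
  exact Nat.le_of_mul_le_mul_left h4 hR

theorem nFix_pos [Finite G] (α : MulAut G) : 0 < nFix α :=
  Nat.card_pos_iff.2 ⟨⟨⟨1, map_one α⟩⟩, inferInstance⟩

theorem exists_nFix_eq_pow {p n : ℕ} [Fact p.Prime] [Finite G] (hG : IsPGroup p G) (α : MulAut G)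
    (h : nFix α ≤ p ^ n) : ∃ j, j ≤ n ∧ nFix α = p ^ j := by
  obtain ⟨j, hj⟩ := IsPGroup.iff_card.1 (hG.to_subgroup (fixSub α))
  refine ⟨j, ?_, hj⟩
  rw [← card_fixSub, hj] at h
  exact (Nat.pow_le_pow_iff_right (Fact.out : p.Prime).one_lt).1 h

theorem derivedSeries_add_le (N : Subgroup G) {a : ℕ} (h : derivedSeries G a ≤ N) (b : ℕ) :
    derivedSeries G (a + b) ≤ (derivedSeries N b).map N.subtype := by
  induction b with
  | zero => rw [add_zero, derivedSeries_zero, ← MonoidHom.range_eq_map, Subgroup.range_subtype]; exact h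
  | succ b ih =>
    rw [← add_assoc, derivedSeries_succ, derivedSeries_succ, Subgroup.map_commutator]
    exact Subgroup.commutator_mono ih ih

theorem derivedSeries_add_eq_bot (N : Subgroup G) {a b : ℕ} (h : derivedSeries G a ≤ N)
    (hb : derivedSeries N b = ⊥) : derivedSeries G (a + b) = ⊥ := by
  have := derivedSeries_add_le N h b
  rwa [hb, Subgroup.map_bot, le_bot_iff] at this

/-- The derived length of a finite solvable group is at most its order. -/
theorem derivedSeries_eq_bot_of_card_le [Finite G] [Group.IsSolvable G] {m : ℕ} (h : Nat.card G ≤ m) :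
    derivedSeries G m = ⊥ := by
  obtain ⟨n, hn⟩ := (Group.isSolvable_def G).1 inferInstance
  have key : ∀ k, derivedSeries G k = ⊥ ∨ Nat.card (derivedSeries G k) + k ≤ Nat.card G := by
    intro k
    induction k with
    | zero => exact Or.inr (by simp)
    | succ k ih =>
      rcases ih with h' | h'
      · exact Or.inl (le_bot_iff.1 (h' ▸ derivedSeries_antitone G k.le_succ))
      by_cases heq : derivedSeries G (k + 1) = derivedSeries G k
      · refine Or.inl ?_
        have hstab : ∀ j, derivedSeries G (k + j) = derivedSeries G k := by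
          intro j
          induction j with
          | zero => rfl
          | succ j ihj => rw [← add_assoc, derivedSeries_succ, ihj, ← derivedSeries_succ, heq]
        rw [heq, ← hstab n]
        exact le_bot_iff.1 (hn ▸ derivedSeries_antitone G (Nat.le_add_left n k))
      · refine Or.inr ?_
        have hle := derivedSeries_antitone G k.le_succ
        have : Nat.card (derivedSeries G (k + 1)) < Nat.card (derivedSeries G k) := by
          rcases Nat.lt_or_ge (Nat.card (derivedSeries G (k + 1))) (Nat.card (derivedSeries G k)) with hlt | hge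
          · exact hlt
          · exact absurd (Subgroup.eq_of_le_of_card_ge hle hge) heq
        omega
  rcases key m with h' | h'
  · exact h'
  · have hpos : 0 < Nat.card (derivedSeries G m) := Nat.card_pos
    omega

end Cfsg.Agent.H91.Alperin
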