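import Cfsg.Agent.H21.Kreknin.Automorphism
import Mathlib.RingTheory.Flat.Basic

/-!
Lie rings with an automorphism of prime order whose fixed points are killed by `m`.
-/

namespace Cfsg.Agent.H91.Alperin

open Polynomial TensorProduct
open Cfsg.Agent.H21.Kreknin

attribute [-instance] LieAlgebra.ExtendScalars.instBracketTensorProduct

universe u

variable {p : ℕ} [hp : Fact p.Prime] {L : Type u} [LieRing L]

/-- If `m` kills the fixed points, then `(p * m) ^ (N + 1)` kills term `N` of the lower central series,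
`N` the class bound of graded Lie rings with trivial zero component. -/
theorem lcsL_killed_of_fixed_killed (σ : L →+ L) (hσ : ∀ a b, σ ⁅a, b⁆ = ⁅σ a, σ b⁆)
    (hord : ∀ x, σ^[p] x = x) (m : ℕ) (hfix : ∀ x, σ x = x → m • x = 0) {N : ℕ}
    (hN : ∀ {M : Type u} [LieRing M] (B : ZMod p → AddSubgroup M), IsClosedFam B → B 0 = ⊥ →
      ∀ t, lcsFam B N t = ⊥) : ∀ x ∈ lcsL L N, (p ^ (N + 1) * m ^ (N + 1)) • x = 0 := by
  classical
  have := cycInt_isDomain p
  set ζ := AdjoinRoot.root (cyclotomic p ℤ) with hζdef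
  have hζ := cycInt_root p
  have : Module.Free ℤ (CycInt p) := Module.Free.of_basis (AdjoinRoot.powerBasis' (cyclotomic.monic p ℤ)).basis
  let z : ZMod p → CycInt p := fun u => ζ ^ u.val
  have hzadd : ∀ u v, z (u + v) = z u * z v := fun u v => by
    show ζ ^ (u + v).val = ζ ^ u.val * ζ ^ v.val
    rw [← pow_add, ZMod.val_add, ← pow_eq_pow_mod _ hζ.pow_eq_one]
  have hz0 : z 0 = 1 := by show ζ ^ (0 : ZMod p).val = 1; rw [ZMod.val_zero, pow_zero]
  let σ' : (CycInt p ⊗[ℤ] L) →ₗ[CycInt p] (CycInt p ⊗[ℤ] L) := σ.toIntLinearMap.baseChange (CycInt p)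
  have hσ'tmul : ∀ (r : CycInt p) l, σ' (r ⊗ₜ l) = r ⊗ₜ σ l := fun r l => rfl
  have hσ' : ∀ a b, σ' ⁅a, b⁆ = ⁅σ' a, σ' b⁆ := by
    intro a b
    induction a using TensorProduct.induction_on with
    | zero => simp
    | add a₁ a₂ h₁ h₂ => simp [add_lie, h₁, h₂]
    | tmul r l =>
      induction b using TensorProduct.induction_on with
      | zero => simp
      | add b₁ b₂ h₁ h₂ => simp [lie_add, h₁, h₂]
      | tmul r' l' => simp [hσ'tmul, hσ, bracket_tmul]
  let B : ZMod p → AddSubgroup (CycInt p ⊗[ℤ] L) := fun t =>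
    { carrier := {y | σ' y = z t • y}
      zero_mem' := by simp
      add_mem' := fun {a b} (ha : σ' a = z t • a) (hb : σ' b = z t • b) => by
        show σ' (a + b) = z t • (a + b)
        rw [map_add, ha, hb, smul_add]
      neg_mem' := fun {a} (ha : σ' a = z t • a) => by
        show σ' (-a) = z t • (-a)
        rw [map_neg, ha, smul_neg] }
  have hB : IsClosedFam B := fun i j a (ha : σ' a = z i • a) b (hb : σ' b = z j • b) => by
    show σ' ⁅a, b⁆ = z (i + j) • ⁅a, b⁆
    rw [hσ', ha, hb, smul_lie_smul, hzadd]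
  -- the family multiplied by `m` has trivial zero component
  let B' : ZMod p → AddSubgroup (CycInt p ⊗[ℤ] L) := fun t => (B t).map (nsmulAddMonoidHom m)
  have hB' : IsClosedFam B' := by
    rintro i j _ ⟨a, ha, rfl⟩ _ ⟨b, hb, rfl⟩
    refine ⟨m • ⁅a, b⁆, AddSubgroup.nsmul_mem _ (hB i j a ha b hb) m, ?_⟩
    simp only [nsmulAddMonoidHom_apply, nsmul_lie, lie_nsmul]
  have h0 : B' 0 = ⊥ := by
    refine (AddSubgroup.eq_bot_iff_forall _).mpr ?_
    rintro _ ⟨y, hy, rfl⟩
    change σ' y = z 0 • y at hy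
    rw [hz0, one_smul] at hy
    set f : L →ₗ[ℤ] L := σ.toIntLinearMap - LinearMap.id with hf
    have hex := Module.Flat.lTensor_exact (CycInt p) (LinearMap.exact_subtype_ker_map f)
    have hy0 : f.lTensor (CycInt p) y = 0 := by
      rw [hf, LinearMap.lTensor_sub, LinearMap.lTensor_id, LinearMap.sub_apply, LinearMap.id_apply]
      exact sub_eq_zero.mpr hy
    obtain ⟨w, rfl⟩ := (hex y).1 hy0
    show m • _ = (0 : CycInt p ⊗[ℤ] L)
    clear hy hy0
    induction w using TensorProduct.induction_on with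
    | zero => simp
    | add a b ha hb => rw [map_add, smul_add, ha, hb, add_zero]
    | tmul r x =>
      rw [LinearMap.lTensor_tmul, ← TensorProduct.tmul_smul, Submodule.subtype_apply,
        hfix x.1 (sub_eq_zero.mp (LinearMap.mem_ker.1 x.2)), tmul_zero]
  have hscale : ∀ k t, ∀ y ∈ lcsFam B k t, m ^ (k + 1) • y ∈ lcsFam B' k t := by
    intro k
    induction k with
    | zero => exact fun t y hy => ⟨y, hy, by simp⟩
    | succ k ih =>
      intro t y hy
      refine AddSubgroup.closure_induction (p := fun y _ => m ^ (k + 1 + 1) • y ∈ lcsFam B' (k + 1) t)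
        ?_ (by simp only [smul_zero]; exact zero_mem _)
        (fun _ _ _ _ h h' => by simp only [smul_add]; exact add_mem h h')
        (fun _ _ h => by simp only [smul_neg]; exact neg_mem h) hy
      rintro _ ⟨i, j, rfl, a, ha, b, hb, rfl⟩
      rw [show m ^ (k + 1 + 1) • ⁅a, b⁆ = ⁅m ^ (k + 1) • a, m • b⁆ by
        rw [nsmul_lie, lie_nsmul, smul_smul, ← pow_succ]]
      exact mem_br (ih i a ha) ⟨b, hb, rfl⟩
  have decomp0 : ∀ x : L, (p ^ (0 + 1)) • ((1 : CycInt p) ⊗ₜ[ℤ] x) ∈
      AddSubgroup.closure {y | ∃ t, y ∈ lcsFam B 0 t} := by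
    intro x
    let f : ZMod p → L := fun k => σ^[k.val] x
    have hf : ∀ k, σ (f k) = f (k + 1) := fun k => by
      show σ (σ^[k.val] x) = σ^[(k + 1).val] x
      rw [← Function.iterate_succ_apply' σ, ZMod.val_add, ZMod.val_one]
      exact (Function.IsPeriodicPt.iterate_mod_apply (hord x) (k.val + 1)).symm
    let e : ZMod p → CycInt p ⊗[ℤ] L := fun t => ∑ k : ZMod p, z (-(t * k)) • ((1 : CycInt p) ⊗ₜ f k)
    have he : ∀ t, e t ∈ B t := fun t => by
      show σ' (e t) = z t • e t
      simp only [e, map_sum, map_smul, hσ'tmul, hf, Finset.smul_sum, smul_smul]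
      refine Fintype.sum_equiv (Equiv.addRight 1) _ _ fun k => ?_
      rw [Equiv.coe_addRight, ← hzadd]
      congr 2
      ring
    have hsum : ∀ k : ZMod p, ∑ t : ZMod p, z (-(t * k)) = if k = 0 then (p : CycInt p) else 0 := by
      intro k
      split_ifs with hk
      · subst hk; simp [hz0]
      · have h : z (-k) * ∑ t : ZMod p, z (-(t * k)) = ∑ t : ZMod p, z (-(t * k)) := by
          rw [Finset.mul_sum]
          refine Fintype.sum_equiv (Equiv.addRight 1) _ _ fun t => ?_
          rw [Equiv.coe_addRight, ← hzadd]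
          congr 1
          ring
        have hne : z (-k) ≠ 1 := hζ.pow_ne_one_of_pos_of_lt
          (fun e => hk (neg_eq_zero.mp ((ZMod.val_eq_zero _).mp e))) (ZMod.val_lt _)
        exact (mul_eq_zero.mp (show (z (-k) - 1) * _ = 0 by rw [sub_mul, h, one_mul, sub_self])).resolve_left
          (sub_ne_zero.mpr hne)
    have htot : ∑ t : ZMod p, e t = p • ((1 : CycInt p) ⊗ₜ x) := by
      simp only [e]
      rw [Finset.sum_comm]
      simp only [← Finset.sum_smul, hsum, ite_smul, zero_smul, Finset.sum_ite_eq', Finset.mem_univ, if_true]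
      rw [Nat.cast_smul_eq_nsmul]
      simp [f]
    rw [pow_one, ← htot]
    exact AddSubgroup.sum_mem _ fun t _ => AddSubgroup.subset_closure ⟨t, he t⟩
  have decomp : ∀ k, ∀ x ∈ lcsL L k, (p ^ (k + 1)) • ((1 : CycInt p) ⊗ₜ[ℤ] x) ∈
      AddSubgroup.closure {y | ∃ t, y ∈ lcsFam B k t} := by
    intro k
    induction k with
    | zero => exact fun x _ => decomp0 x
    | succ k ih =>
      intro x hx
      refine AddSubgroup.closure_induction (p := fun x _ => (p ^ (k + 1 + 1)) • ((1 : CycInt p) ⊗ₜ[ℤ] x) ∈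
        AddSubgroup.closure {y | ∃ t, y ∈ lcsFam B (k + 1) t}) ?_
        (by simp only [tmul_zero, smul_zero]; exact zero_mem _)
        (fun _ _ _ _ h h' => by simp only [tmul_add, smul_add]; exact add_mem h h')
        (fun _ _ h => by simp only [tmul_neg, smul_neg]; exact neg_mem h) hx
      rintro _ ⟨a, ha, b, rfl⟩
      have h1 := ih a ha
      have h2 : p • ((1 : CycInt p) ⊗ₜ[ℤ] b) ∈ AddSubgroup.closure {y | ∃ t, y ∈ B t} := by
        have : (p ^ (0 + 1)) • ((1 : CycInt p) ⊗ₜ[ℤ] b) ∈ AddSubgroup.closure {y | ∃ t, y ∈ lcsFam B 0 t} := by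
          exact decomp0 b
        simpa [lcsFam] using this
      rw [show (p ^ (k + 1 + 1)) • ((1 : CycInt p) ⊗ₜ[ℤ] ⁅a, b⁆) =
          ⁅(p ^ (k + 1)) • ((1 : CycInt p) ⊗ₜ[ℤ] a), p • ((1 : CycInt p) ⊗ₜ[ℤ] b)⁆ by
        rw [nsmul_lie, lie_nsmul, bracket_tmul, one_mul, smul_smul, ← pow_succ]]
      generalize (p ^ (k + 1)) • ((1 : CycInt p) ⊗ₜ[ℤ] a) = u at h1
      generalize p • ((1 : CycInt p) ⊗ₜ[ℤ] b) = v at h2
      refine AddSubgroup.closure_induction (p := fun u _ => ⁅u, v⁆ ∈
        AddSubgroup.closure {y | ∃ t, y ∈ lcsFam B (k + 1) t}) ?_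
        (by simp only [zero_lie]; exact zero_mem _)
        (fun _ _ _ _ h h' => by simp only [add_lie]; exact add_mem h h')
        (fun _ _ h => by simp only [neg_lie]; exact neg_mem h) h1
      rintro u ⟨i, hu⟩
      refine AddSubgroup.closure_induction (p := fun v _ => ⁅u, v⁆ ∈
        AddSubgroup.closure {y | ∃ t, y ∈ lcsFam B (k + 1) t}) ?_
        (by simp only [lie_zero]; exact zero_mem _)
        (fun _ _ _ _ h h' => by simp only [lie_add]; exact add_mem h h')
        (fun _ _ h => by simp only [lie_neg]; exact neg_mem h) h2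
      rintro v ⟨j, hv⟩
      exact AddSubgroup.subset_closure ⟨i + j, mem_br hu hv⟩
  intro x hx
  have h := decomp N x hx
  have hle : AddSubgroup.closure {y | ∃ t, y ∈ lcsFam B N t} ≤
      (nsmulAddMonoidHom (α := CycInt p ⊗[ℤ] L) (m ^ (N + 1))).ker := by
    rw [AddSubgroup.closure_le]
    rintro y ⟨t, hy⟩
    have hk := hscale N t y hy
    rw [hN B' hB' h0 t, AddSubgroup.mem_bot] at hk
    exact hk
  have h' : m ^ (N + 1) • (p ^ (N + 1) • ((1 : CycInt p) ⊗ₜ[ℤ] x)) = 0 := hle h
  rw [smul_smul, mul_comm, ← tmul_smul] at h'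
  exact one_tmul_injective (p := p) (h'.trans (tmul_zero L (1 : CycInt p)).symm)

end Cfsg.Agent.H91.Alperin
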