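import Cfsg.Agent.H91.Alperin.PGroup
import Cfsg.Agent.H19.Fitting
import Cfsg.Agent.H19.Frattini
import Cfsg.Agent.H58.FrattiniAction
import Cfsg.Agent.S3779

/-!
Alperin: the derived length of a solvable group with an automorphism of order `p` fixing `p ^ n`
elements is bounded in terms of `p` and `n`.
-/

namespace Cfsg.Agent.H91.Alperin

open scoped commutatorElement

variable {G : Type*} [Group G] [Finite G] {p : ℕ} [hp : Fact p.Prime]

/-- On a `p'`-subgroup the automorphism is fixed-point-free, so the derived length is bounded. -/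
theorem derivedSeries_xi_eq_bot_of_coprime (α : MulAut G) (hα : α ^ p = 1)
    (hcop : (Nat.card G).Coprime p) {j : ℕ} (hfix : nFix α ∣ p ^ j) : derivedSeries G (xi p) = ⊥ := by
  have h1 : nFix α = 1 := by
    refine Nat.eq_one_of_dvd_coprimes (hcop.pow_right j) ?_ hfix
    rw [← card_fixSub]
    exact Subgroup.card_subgroup_dvd_card _
  have hfpf : ∀ g : G, α g = g → g = 1 := fun g hg => by
    have := (Nat.card_eq_one_iff_unique.1 h1).1
    exact congrArg Subtype.val (Subsingleton.elim (⟨g, hg⟩ : {g : G // α g = g}) ⟨1, map_one α⟩)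
  by_cases hα1 : α = 1
  · haveI : Subsingleton G := ⟨fun a b => by
      rw [hfpf a (by rw [hα1]; rfl), hfpf b (by rw [hα1]; rfl)]⟩
    exact Subsingleton.elim _ _
  refine le_bot_iff.1 ((Subgroup.derived_le_lower_central _).trans ?_)
  exact (Cfsg.Agent.S3779.result hp.out α (orderOf_eq_prime hα hα1) hfpf).2.2.le

/-- With trivial `p'`-core: the derived series reaches the `p`-core in boundedly many steps. -/
theorem derivedSeries_le_pCore [Group.IsSolvable G] (hcore : Cfsg.pPrimeCore p G = ⊥) (α : MulAut G)
    (hα : α ^ p = 1) {n : ℕ} (hfix : nFix α ≤ p ^ n) :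
    derivedSeries G (p ^ (1 * (p * n) + n)).factorial ≤ Cfsg.pCore p G := by
  classical
  let Q : Subgroup G := Cfsg.pCore p G
  haveI : Q.Characteristic := Cfsg.Agent.H19.pCore_characteristic p G
  have hQ : IsPGroup p Q := Cfsg.Agent.H19.pCore_isPGroup p
  have hmapQ := map_eq_of_characteristic α Q
  let αQ := resAut α Q hmapQ
  haveI : (frattini Q).Characteristic := inferInstance
  have hmapF := map_eq_of_characteristic αQ (frattini Q)
  obtain ⟨hc, hpw⟩ := Cfsg.Agent.H19.commutator_pow_mem_frattini hQ
  -- size of the Frattini quotient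
  have hV : Nat.card (Q ⧸ frattini Q) ≤ p ^ (1 * (p * n) + n) := by
    have hcomm : ∀ a b : Q ⧸ frattini Q, a * b = b * a := by
      intro a b
      induction a using QuotientGroup.induction_on with
      | H a =>
        induction b using QuotientGroup.induction_on with
        | H b =>
          rw [← QuotientGroup.mk_mul, ← QuotientGroup.mk_mul, QuotientGroup.eq,
            show (a * b)⁻¹ * (b * a) = ⁅b⁻¹, a⁻¹⁆ by group]
          exact hc (Subgroup.commutator_mem_commutator (Subgroup.mem_top _) (Subgroup.mem_top _))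
    letI : CommGroup (Q ⧸ frattini Q) :=
      { (inferInstance : Group (Q ⧸ frattini Q)) with mul_comm := hcomm }
    refine card_le_of_exponent (hQ.to_quotient _) (quotAut αQ _ hmapF)
      (quotAut_pow_eq_one αQ _ hmapF (resAut_pow_eq_one α Q hmapQ hα))
      ((nFix_quotAut_le αQ _ hmapF).trans ((nFix_resAut_le α Q hmapQ).trans hfix)) ?_
    intro v
    induction v using QuotientGroup.induction_on with
    | H v => rw [pow_one, ← QuotientGroup.mk_pow, QuotientGroup.eq_one_iff]; exact hpw v
  -- the action by conjugation on the Frattini quotient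
  let θ : G →* Equiv.Perm (Q ⧸ frattini Q) :=
    { toFun := fun g => (quotAut (MulAut.conjNormal g) (frattini Q)
        (map_eq_of_characteristic _ _)).toEquiv
      map_one' := by
        ext q
        induction q using QuotientGroup.induction_on with
        | H q => show ((MulAut.conjNormal (1 : G)) q : Q ⧸ frattini Q) = _; rw [map_one]; rfl
      map_mul' := fun a b => by
        ext q
        induction q using QuotientGroup.induction_on with
        | H q => show ((MulAut.conjNormal (a * b)) q : Q ⧸ frattini Q) = _; rw [map_mul]; rfl }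
  have hker : θ.ker ≤ Q := by
    have hpg : IsPGroup p θ.ker := by
      by_contra hnp
      obtain ⟨r, hr, hrdvd, hrp⟩ : ∃ r, r.Prime ∧ r ∣ Nat.card θ.ker ∧ r ≠ p := by
        by_contra hcon
        refine hnp (IsPGroup.of_card (n := (Nat.card θ.ker).primeFactorsList.length) ?_)
        refine Nat.eq_prime_pow_of_unique_prime_dvd Nat.card_pos.ne' ?_
        intro d hd hdd
        by_contra hne
        exact hcon ⟨d, hd, hdd, hne⟩
      haveI := Fact.mk hr
      obtain ⟨x, hx⟩ := exists_prime_orderOf_dvd_card' (G := θ.ker) r hrdvd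
      have hxr : (x : G) ^ r = 1 := by rw [← hx, ← SubgroupClass.coe_pow, pow_orderOf_eq_one]; rfl
      have htriv : ∀ q : Q, q⁻¹ * MulAut.conjNormal (x : G) q ∈ frattini Q := by
        intro q
        have h := Equiv.congr_fun (MonoidHom.mem_ker.1 x.2) (QuotientGroup.mk q)
        exact QuotientGroup.eq.1 h.symm
      have hfixq := Cfsg.Agent.H58.aut_eq_one_of_trivial_mod_frattini hQ hrp
        (MulAut.conjNormal (x : G)) (by rw [← map_pow, hxr, map_one]) htriv
      have hxQ : (x : G) ∈ Q := by
        refine Cfsg.Agent.H19.centralizer_pCore_le hcore (Subgroup.mem_centralizer_iff.2 ?_)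
        intro q hq
        have h := congrArg Subtype.val (hfixq ⟨q, hq⟩)
        rw [MulAut.conjNormal_apply] at h
        have h' : (x : G) * q * (x : G)⁻¹ = q := h
        conv_lhs => rw [← h']
        group
      obtain ⟨k, hk⟩ := IsPGroup.iff_card.1 hQ
      have : r ∣ p ^ k := by
        rw [← hk, ← hx, ← Subgroup.orderOf_coe, ← Subgroup.orderOf_mk (x : G) hxQ]
        exact orderOf_dvd_natCard _
      exact hrp ((Nat.prime_dvd_prime_iff_eq hr hp.out).1 (hr.dvd_of_dvd_pow this))
    exact Cfsg.Agent.H19.le_pCore inferInstance hpg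
  refine le_trans ?_ hker
  rw [← MonoidHom.ker_rangeRestrict, ← MonoidHom.comap_bot]
  have hsol : Group.IsSolvable θ.range := solvable_of_surjective θ.rangeRestrict_surjective
  have hr : Nat.card θ.range ≤ (p ^ (1 * (p * n) + n)).factorial := by
    refine (Subgroup.card_le_card_group _).trans ?_
    rw [Nat.card_perm]
    exact Nat.factorial_le hV
  rw [← Subgroup.map_le_iff_le_comap, map_derivedSeries_eq θ.rangeRestrict_surjective,
    derivedSeries_eq_bot_of_card_le hr]

/-- Alperin's bound. -/
def bound (p n : ℕ) : ℕ := (p ^ (1 * (p * n) + n)).factorial + pBound p n + xi p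

theorem derivedSeries_bound_eq_bot [Group.IsSolvable G] (α : MulAut G) (hα : α ^ p = 1) {n : ℕ}
    (hfix : nFix α = p ^ n) : derivedSeries G (bound p n) = ⊥ := by
  let K : Subgroup G := Cfsg.pPrimeCore p G
  haveI : K.Characteristic := Cfsg.Agent.H19.pPrimeCore_characteristic p G
  have hmapK := map_eq_of_characteristic α K
  have hK : derivedSeries K (xi p) = ⊥ :=
    derivedSeries_xi_eq_bot_of_coprime (resAut α K hmapK) (resAut_pow_eq_one α K hmapK hα)
      (Cfsg.Agent.H19.pPrimeCore_coprime p) (hfix ▸ (nFix_resAut_dvd α K hmapK).1)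
  let β := quotAut α K hmapK
  have hβ : β ^ p = 1 := quotAut_pow_eq_one α K hmapK hα
  have hfβ : nFix β ≤ p ^ n := hfix ▸ nFix_quotAut_le α K hmapK
  have hcore : Cfsg.pPrimeCore p (G ⧸ K) = ⊥ := Cfsg.Agent.H19.pPrimeCore_quotient_pPrimeCore p
  haveI : Group.IsSolvable (G ⧸ K) := solvable_of_surjective (QuotientGroup.mk'_surjective K)
  let Q : Subgroup (G ⧸ K) := Cfsg.pCore p (G ⧸ K)
  haveI : Q.Characteristic := Cfsg.Agent.H19.pCore_characteristic p (G ⧸ K)
  have hmapQ := map_eq_of_characteristic β Q
  have hQ : derivedSeries Q (pBound p n) = ⊥ :=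
    derivedSeries_pBound_eq_bot (Cfsg.Agent.H19.pCore_isPGroup p) (resAut β Q hmapQ)
      (resAut_pow_eq_one β Q hmapQ hβ) ((nFix_resAut_le β Q hmapQ).trans hfβ)
  have hq : derivedSeries (G ⧸ K) ((p ^ (1 * (p * n) + n)).factorial + pBound p n) = ⊥ :=
    derivedSeries_add_eq_bot Q (derivedSeries_le_pCore hcore β hβ hfβ) hQ
  refine derivedSeries_add_eq_bot K ?_ hK
  rw [← QuotientGroup.ker_mk' K, ← MonoidHom.comap_bot, ← Subgroup.map_le_iff_le_comap,
    map_derivedSeries_eq (QuotientGroup.mk'_surjective K), hq]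

end Cfsg.Agent.H91.Alperin
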