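import Cfsg.Agent.H91.Alperin.Fix
import Cfsg.Agent.H91.Alperin.LieFix
import Cfsg.Agent.H21.Kreknin.Main
import Cfsg.Agent.S3780
import Cfsg.Agent.S3781

/-!
A finite `p`-group with an automorphism of order dividing `p` with few fixed points has bounded
derived length (Alperin).
-/

namespace Cfsg.Agent.H91.Alperin

open Cfsg.Agent.H21.Kreknin

/-- The class bound of Higman, Kreknin and Kostrikin. -/
def xi (p : ℕ) : ℕ := Finset.sum (Finset.range (2 ^ (p - 1) - 1)) (fun i => (p - 1) ^ i)

theorem xi_pos {p : ℕ} (hp : 2 ≤ p) : 0 < xi p := by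
  have h2 : 2 ≤ 2 ^ (p - 1) := by
    calc 2 = 2 ^ 1 := rfl
      _ ≤ 2 ^ (p - 1) := Nat.pow_le_pow_right (by norm_num) (by omega)
  refine Finset.sum_pos (fun i _ => pow_pos (by omega) i) ?_
  exact Finset.nonempty_range_iff.2 (by omega)

/-- An abelian `p`-group of exponent dividing `p ^ M` with at most `p ^ n` fixed points. -/
theorem card_le_of_exponent {V : Type*} [CommGroup V] [Finite V] {p : ℕ} [hp : Fact p.Prime]
    (hV : IsPGroup p V) (α : MulAut V) (hα : α ^ p = 1) {n M : ℕ} (hfix : nFix α ≤ p ^ n)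
    (hexp : ∀ v : V, v ^ p ^ M = 1) : Nat.card V ≤ p ^ (M * (p * n) + n) := by
  classical
  have hp1 : 1 ≤ p := hp.out.one_lt.le
  by_cases h1 : α = 1
  · subst h1
    refine le_trans ?_ (Nat.pow_le_pow_right hp1 (Nat.le_add_left n _))
    refine le_trans ?_ hfix
    exact (Nat.card_congr (Equiv.subtypeUnivEquiv (p := fun g : V => (1 : MulAut V) g = g)
      fun _ => rfl)).ge
  obtain ⟨j, hj, hfj⟩ := exists_nFix_eq_pow hV α hfix
  obtain ⟨S, hS, hgen⟩ := Cfsg.Agent.S3780.result hV α (orderOf_eq_prime hα h1) j hfj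
  have hpm : 0 < p ^ M := pow_pos hp.out.pos M
  let φ : (S → Fin (p ^ M)) → V := fun e => ∏ s : S, (s : V) ^ (e s : ℕ)
  have hsurj : Function.Surjective φ := by
    intro v
    have hv : v ∈ Subgroup.closure (S : Set V) := by rw [hgen]; trivial
    haveI : NeZero (p ^ M) := ⟨hpm.ne'⟩
    have hmod : ∀ (x : V) (a : ℕ), x ^ (a % p ^ M) = x ^ a := fun x a => by
      conv_rhs => rw [← Nat.mod_add_div a (p ^ M), pow_add, pow_mul, hexp, one_pow, mul_one]
    have hmul : ∀ e e', φ e * φ e' = φ (e + e') := fun e e' => by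
      simp only [φ, ← Finset.prod_mul_distrib, ← pow_add, Pi.add_apply, Fin.val_add, hmod]
    have h0 : φ 0 = 1 := by simp [φ]
    refine Subgroup.closure_induction (p := fun v _ => ∃ e, φ e = v) ?_ ?_ ?_ ?_ hv
    · intro s hs
      refine ⟨Pi.single ⟨s, hs⟩ 1, ?_⟩
      show ∏ t : S, (t : V) ^ ((Pi.single (⟨s, hs⟩ : S) (1 : Fin (p ^ M)) : S → Fin (p ^ M)) t : ℕ) = s
      rw [Finset.prod_eq_single (⟨s, hs⟩ : S)]
      · rw [Pi.single_eq_same, Fin.val_one', hmod, pow_one]
      · intro t _ ht
        rw [Pi.single_eq_of_ne ht]; simp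
      · simp
    · exact ⟨0, h0⟩
    · rintro a b _ _ ⟨e, rfl⟩ ⟨e', rfl⟩
      exact ⟨e + e', (hmul e e').symm⟩
    · rintro a _ ⟨e, rfl⟩
      refine ⟨-e, eq_inv_of_mul_eq_one_left ?_⟩
      rw [hmul, neg_add_cancel, h0]
  refine le_trans (Nat.card_le_card_of_surjective φ hsurj) ?_
  rw [Nat.card_fun, Nat.card_eq_fintype_card, Fintype.card_fin, Nat.card_eq_fintype_card,
    Fintype.card_coe, ← pow_mul]
  refine Nat.pow_le_pow_right hp1 ?_
  calc M * S.card ≤ M * (p * n) := Nat.mul_le_mul_left _ (hS.trans (Nat.mul_le_mul_left _ hj))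
    _ ≤ _ := Nat.le_add_right _ _

universe u

variable {G : Type u} [Group G] [Finite G] {p : ℕ} [hp : Fact p.Prime]

omit [Finite G] in
theorem fmk_pow {k : ℕ} {g : G} (h : g ∈ gam G k) : ∀ m : ℕ,
    fmk k (g ^ m) (pow_mem h m) = m • fmk k g h
  | 0 => by
    rw [zero_smul, fmk_eq_zero]
    simp
  | m + 1 => by
    rw [succ_nsmul, ← fmk_pow h m, ← fmk_mul (pow_mem h m) h]
    congr 1
    exact pow_succ g m

/-- In a `p`-group, term `xi p` of the lower central series has bounded exponent modulo the next. -/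
theorem pow_mem_gam_succ (hG : IsPGroup p G) (α : MulAut G) (hα : α ^ p = 1) {n : ℕ}
    (hfix : nFix α ≤ p ^ n) {g : G} (hg : g ∈ gam G (xi p)) :
    g ^ p ^ ((n + 1) * (xi p + 1)) ∈ gam G (xi p + 1) := by
  have hord : ∀ x : GrLie G, (grMap α)^[p] x = x := by
    intro x
    induction x using grLie_induction with
    | zero => exact Function.iterate_fixed (map_zero _) p
    | add a b ha hb => rw [iterate_map_add, ha, hb]
    | hom k g h =>
      have key : ∀ n, ∃ h', (grMap α)^[n] (iota k g h) = iota k ((α ^ n) g) h' := by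
        intro n
        induction n with
        | zero => exact ⟨h, rfl⟩
        | succ n ih =>
          obtain ⟨h', e⟩ := ih
          refine ⟨by rw [pow_succ']; exact gam_map_mem α h', ?_⟩
          rw [Function.iterate_succ_apply', e, grMap_iota]
          exact iota_congr _ _ rfl (by rw [pow_succ']; rfl)
      obtain ⟨h', e⟩ := key p
      rw [e]
      exact iota_congr _ _ rfl (by rw [hα]; rfl)
  have hkill : ∀ x : GrLie G, grMap α x = x → p ^ n • x = 0 := by
    intro x hx
    refine DirectSum.ext_component ℤ fun k => ?_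
    have hk : factorMap α k (x k) = x k := by
      have := congrArg (fun y : GrLie G => y k) hx
      simpa [grMap, DirectSum.map_apply] using this
    show (p ^ n • x) k = (0 : GrLie G) k
    rw [DirectSum.zero_apply]
    refine ((map_nsmul (DFinsupp.evalAddMonoidHom k : GrLie G →+ Factor G k) (p ^ n) x)).trans ?_
    show p ^ n • x k = 0
    obtain ⟨g, h, e⟩ := fmk_surjective (x k)
    rw [← e] at hk ⊢
    -- the coset of `g` is a fixed point of the induced automorphism
    haveI : (gam G k).Characteristic := inferInstance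
    have hmapH := map_eq_of_characteristic α (gam G k)
    let αH := resAut α (gam G k) hmapH
    have hmapN : (gamSub G k).map (αH : gam G k ≃* gam G k).toMonoidHom = gamSub G k := by
      refine Subgroup.eq_of_le_of_card_ge ?_ ?_
      · rintro _ ⟨y, hy, rfl⟩
        exact Subgroup.mem_subgroupOf.2 (gam_map_mem α (Subgroup.mem_subgroupOf.1 hy))
      · exact (Nat.card_congr ((gamSub G k).equivMapOfInjective _ (αH : gam G k ≃* gam G k).injective).toEquiv).le
    let αQ := quotAut αH (gamSub G k) hmapN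
    have hfq : nFix αQ ≤ p ^ n :=
      (nFix_quotAut_le αH _ hmapN).trans ((nFix_resAut_le α _ hmapH).trans hfix)
    have hgq : αQ (QuotientGroup.mk ⟨g, h⟩) = QuotientGroup.mk ⟨g, h⟩ := by
      rw [show αQ (QuotientGroup.mk ⟨g, h⟩) = QuotientGroup.mk (αH ⟨g, h⟩) from rfl]
      exact congrArg Additive.toMul hk
    have hQ : IsPGroup p (gam G k ⧸ gamSub G k) := (hG.to_subgroup _).to_quotient _
    obtain ⟨j, hj, hfj⟩ := exists_nFix_eq_pow hQ αQ hfq
    have hdvd : orderOf (⟨_, hgq⟩ : fixSub αQ) ∣ p ^ n :=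
      (orderOf_dvd_natCard _).trans (by rw [card_fixSub, hfj]; exact Nat.pow_dvd_pow p hj)
    have hpow : (QuotientGroup.mk (s := gamSub G k) ⟨g, h⟩) ^ p ^ n = 1 :=
      congrArg Subtype.val (orderOf_dvd_iff_pow_eq_one.1 hdvd)
    show p ^ n • fmk k g h = 0
    rw [← fmk_pow h, fmk_eq_zero]
    rw [← QuotientGroup.mk_pow, QuotientGroup.eq_one_iff, Subgroup.mem_subgroupOf] at hpow
    exact hpow
  have hL := lcsL_killed_of_fixed_killed (grMap α) (grMap_lie α) hord (p ^ n) hkill
    (N := xi p) (fun {M} _ B hB h0 t => lcsFam_eq_bot hB h0 t)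
  have hmem : ∀ k g (h : g ∈ gam G k), iota k g h ∈ lcsL (GrLie G) k := by
    intro k
    induction k with
    | zero => exact fun g h => AddSubgroup.mem_top _
    | succ k ih =>
      intro g h
      have h' := (Subgroup.mem_lowerCentralSeries_succ_iff (S := (⊤ : Subgroup G)) k g).mp h
      suffices H : ∃ hg : g ∈ gam G (k + 1), iota (k + 1) g hg ∈ lcsL (GrLie G) (k + 1) from H.2
      refine Subgroup.closure_induction (p := fun g _ => ∃ hg : g ∈ gam G (k + 1),
        iota (k + 1) g hg ∈ lcsL (GrLie G) (k + 1)) ?_ ?_ ?_ ?_ h'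
      · rintro _ ⟨a, ha, b, hb, rfl⟩
        refine ⟨mem_gam_commutator ha (j := 0) (Subgroup.mem_top b), ?_⟩
        rw [← lie_iota ha (j := 0) (Subgroup.mem_top b)]
        exact AddSubgroup.subset_closure ⟨_, ih a ha, _, rfl⟩
      · refine ⟨one_mem _, ?_⟩
        rw [(iota_eq_zero (one_mem (gam G (k + 1)))).mpr (one_mem _)]
        exact zero_mem _
      · rintro a b _ _ ⟨ha, h1⟩ ⟨hb, h2⟩
        refine ⟨mul_mem ha hb, ?_⟩
        rw [iota_mul ha hb]
        exact add_mem h1 h2
      · rintro a _ ⟨ha, h1⟩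
        refine ⟨inv_mem ha, ?_⟩
        rw [iota, fmk_inv ha, map_neg]
        exact neg_mem h1
  have h1 := hL _ (hmem _ g hg)
  rw [show p ^ (xi p + 1) * (p ^ n) ^ (xi p + 1) = p ^ ((n + 1) * (xi p + 1)) by
    rw [← pow_mul, ← pow_add]; congr 1; ring] at h1
  rw [← iota_eq_zero (pow_mem hg _), iota, fmk_pow hg, map_nsmul]
  exact h1

/-- The bound on the derived length for `p`-groups. -/
def pBound (p n : ℕ) : ℕ :=
  ((n + 1) * (xi p + 1) * (p * n) + n) + (xi p + 1)

theorem derivedSeries_pBound_eq_bot (hG : IsPGroup p G) (α : MulAut G) (hα : α ^ p = 1) {n : ℕ}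
    (hfix : nFix α ≤ p ^ n) : derivedSeries G (pBound p n) = ⊥ := by
  let E := (n + 1) * (xi p + 1)
  let k0 := E * (p * n) + n
  let N : Subgroup G := gam G k0
  haveI : N.Characteristic := inferInstanceAs (gam G k0).Characteristic
  have hmapN := map_eq_of_characteristic α N
  let αN := resAut α N hmapN
  have hN1 : IsPGroup p N := hG.to_subgroup _
  have hαN : αN ^ p = 1 := resAut_pow_eq_one α N hmapN hα
  have hfN : nFix αN ≤ p ^ n := (nFix_resAut_le α N hmapN).trans hfix
  -- factor number `xi p` of `N` is small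
  let H : Subgroup N := gam N (xi p)
  haveI : H.Characteristic := inferInstanceAs (gam N (xi p)).Characteristic
  have hmapH := map_eq_of_characteristic αN H
  let αH := resAut αN H hmapH
  have hmapS : (gamSub N (xi p)).map (αH : H ≃* H).toMonoidHom = gamSub N (xi p) := by
    refine Subgroup.eq_of_le_of_card_ge ?_ ?_
    · rintro _ ⟨y, hy, rfl⟩
      exact Subgroup.mem_subgroupOf.2 (gam_map_mem αN (Subgroup.mem_subgroupOf.1 hy))
    · exact (Nat.card_congr ((gamSub N (xi p)).equivMapOfInjective _ (αH : H ≃* H).injective).toEquiv).le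
  have hbound : Nat.card (gam N (xi p) ⧸ gamSub N (xi p)) ≤ p ^ k0 := by
    letI : CommGroup (gam N (xi p) ⧸ gamSub N (xi p)) :=
      { (inferInstance : Group (gam N (xi p) ⧸ gamSub N (xi p))) with
        mul_comm := fun a b => congrArg Additive.toMul
          (@add_comm (Factor N (xi p)) _ (Additive.ofMul a) (Additive.ofMul b)) }
    refine card_le_of_exponent ((hN1.to_subgroup _).to_quotient _) (quotAut αH _ hmapS)
      (quotAut_pow_eq_one αH _ hmapS (resAut_pow_eq_one αN H hmapH hαN))
      ((nFix_quotAut_le αH _ hmapS).trans ((nFix_resAut_le αN H hmapH).trans hfN)) ?_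
    intro v
    induction v using QuotientGroup.induction_on with
    | H v =>
      rw [← QuotientGroup.mk_pow, QuotientGroup.eq_one_iff, Subgroup.mem_subgroupOf]
      exact pow_mem_gam_succ hN1 αN hαN hfN v.2
  -- Hall's inequality kills the next factor
  have hbot : N.lowerCentralSeries (xi p + 1) = ⊥ := by
    by_contra hne
    have h := Cfsg.Agent.S3781.result hG (k0 + 1) (by omega) N le_rfl (xi p + 1)
      (by have := xi_pos hp.out.two_le; omega) hne
    rw [show xi p + 1 - 1 = xi p from rfl, ← Subgroup.top_subtype_lowerCentralSeries N (xi p + 1),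
      ← Subgroup.top_subtype_lowerCentralSeries N (xi p),
      Subgroup.relIndex_map_map_of_injective _ _ N.subtype_injective] at h
    have h' : p ^ (k0 + 1) ≤ p ^ k0 := h.trans (le_of_eq_of_le rfl hbound)
    have := (Nat.pow_le_pow_iff_right hp.out.one_lt).1 h'
    omega
  have hN2 : derivedSeries N (xi p + 1) = ⊥ := by
    refine le_bot_iff.1 ((Subgroup.derived_le_lower_central _).trans ?_)
    rw [← Subgroup.map_le_map_iff_of_injective N.subtype_injective, Subgroup.map_bot,
      Subgroup.top_subtype_lowerCentralSeries, hbot]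
  exact derivedSeries_add_eq_bot N (Subgroup.derived_le_lower_central k0) hN2

end Cfsg.Agent.H91.Alperin
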